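import Mathlib
import Cfsg.Agent.Lib.Helper37.SzGen
import Cfsg.Agent.Lib.Helper37.SzRel
import Cfsg.Agent.Lib.Helper37.SzCount

set_option autoImplicit false

/-!
A computable model of the field with eight elements, and the Suzuki group over it as a group of
permutations of the 65 points of the ovoid.
-/

namespace Cfsg.Agent.Lib.Helper56.SzEight

open Cfsg.Agent.Lib.Helper37

/-- The field with eight elements: bit vectors modulo `t^3 + t + 1`. -/
def K8 : Type := Fin 8

namespace K8

instance : DecidableEq K8 := inferInstanceAs (DecidableEq (Fin 8))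
instance : Fintype K8 := inferInstanceAs (Fintype (Fin 8))

/-- addition -/
def add (a b : K8) : K8 :=
  (![![0, 1, 2, 3, 4, 5, 6, 7],
    ![1, 0, 3, 2, 5, 4, 7, 6],
    ![2, 3, 0, 1, 6, 7, 4, 5],
    ![3, 2, 1, 0, 7, 6, 5, 4],
    ![4, 5, 6, 7, 0, 1, 2, 3],
    ![5, 4, 7, 6, 1, 0, 3, 2],
    ![6, 7, 4, 5, 2, 3, 0, 1],
    ![7, 6, 5, 4, 3, 2, 1, 0]] : Fin 8 → Fin 8 → Fin 8) a b

/-- multiplication -/
def mul (a b : K8) : K8 :=
  (![![0, 0, 0, 0, 0, 0, 0, 0],
    ![0, 1, 2, 3, 4, 5, 6, 7],
    ![0, 2, 4, 6, 3, 1, 7, 5],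
    ![0, 3, 6, 5, 7, 4, 1, 2],
    ![0, 4, 3, 7, 6, 2, 5, 1],
    ![0, 5, 1, 4, 2, 7, 3, 6],
    ![0, 6, 7, 1, 5, 3, 2, 4],
    ![0, 7, 5, 2, 1, 6, 4, 3]] : Fin 8 → Fin 8 → Fin 8) a b

/-- inverse -/
def inv (a : K8) : K8 := (![0, 1, 5, 6, 7, 2, 3, 4] : Fin 8 → Fin 8) a

/-- zero -/
def zero : K8 := (0 : Fin 8)

/-- one -/
def one : K8 := (1 : Fin 8)

instance : Zero K8 := ⟨zero⟩
instance : One K8 := ⟨one⟩
instance : Add K8 := ⟨add⟩
instance : Mul K8 := ⟨mul⟩
instance : Neg K8 := ⟨fun a => a⟩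
instance : Inv K8 := ⟨inv⟩

instance : Field K8 where
  add_assoc := by decide
  zero_add := by decide
  add_zero := by decide
  nsmul := nsmulRec
  zsmul := zsmulRec
  neg_add_cancel := by decide
  add_comm := by decide
  left_distrib := by decide
  right_distrib := by decide
  zero_mul := by decide
  mul_zero := by decide
  mul_assoc := by decide
  one_mul := by decide
  mul_one := by decide
  mul_comm := by decide
  exists_pair_ne := ⟨zero, one, by decide⟩
  mul_inv_cancel := by decide
  inv_zero := by decide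
  nnqsmul := _
  nnqsmul_def := fun _ _ => rfl
  qsmul := _
  qsmul_def := fun _ _ => rfl

theorem card : Fintype.card K8 = 8 := by decide

end K8


/-- the element with a given bit pattern -/
def k (n : Fin 8) : K8 := n

theorem card' : Fintype.card K8 = 2 ^ (2 * 1 + 1) := by decide

/-- the Suzuki data -/
theorem hdata : SzData K8 (2 ^ (1 + 1)) := szData_of_card (m := 1) le_rfl card'

/-- The points of the ovoid. -/
abbrev Pt : Type := Option (K8 × K8)

/-- The parametrisation of the ovoid. -/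
noncomputable def eqv : Pt ≃ ↥(Cfsg.suzukiOvoid K8 1) :=
  Equiv.ofBijective (szOvoidMap 1) (szOvoidMap_bijective 1)

theorem eqv_none : eqv none = oInf K8 1 := rfl

theorem eqv_some (x y : K8) : eqv (some (x, y)) = oPt 1 x y := rfl

/-- The permutation representation on the points. -/
noncomputable def pi : ↥(Cfsg.Sz K8 1) →* Equiv.Perm Pt :=
  (eqv.symm.permCongrHom).toMonoidHom.comp
    (MulAction.toPermHom ↥(Cfsg.Sz K8 1) ↥(Cfsg.suzukiOvoid K8 1))

theorem pi_apply (g : ↥(Cfsg.Sz K8 1)) (p : Pt) : pi g p = eqv.symm (g • eqv p) := rfl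

theorem pi_injective : Function.Injective pi := by
  intro g g' h
  have hp : ∀ p : Pt, g • eqv p = g' • eqv p := by
    intro p
    have h1 : pi g p = pi g' p := by rw [h]
    rw [pi_apply, pi_apply] at h1
    exact eqv.symm.injective h1
  exact sz_ext3 hdata g g' (hp none) (hp (some (0, 0))) (hp (some (1, 0)))

/-- the translation as a map -/
def fT (a b : K8) : Pt → Pt
  | none => none
  | some (x, y) => some (x + a, y + b + a ^ 4 * x)

/-- the translation -/
def pT (a b : K8) : Equiv.Perm Pt where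
  toFun := fT a b
  invFun := fT a (b + a ^ 5)
  left_inv := (by decide +kernel : ∀ (a b : K8) (p : Pt), fT a (b + a ^ 5) (fT a b p) = p) a b
  right_inv := (by decide +kernel : ∀ (a b : K8) (p : Pt), fT a b (fT a (b + a ^ 5) p) = p) a b

/-- the inversion as a map -/
def fW : Pt → Pt
  | none => some (0, 0)
  | some (x, y) => if x = 0 ∧ y = 0 then none else some (y / szf 4 x y, x / szf 4 x y)

/-- the inversion -/
def pW : Equiv.Perm Pt where
  toFun := fW
  invFun := fW
  left_inv := by decide +kernel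
  right_inv := by decide +kernel

theorem pi_T (a b : K8) : pi (szTm hdata a b) = pT a b := by
  apply Equiv.ext
  intro p
  rw [pi_apply]
  cases p with
  | none =>
    rw [eqv_none, szTm_smul_inf, ← eqv_none, Equiv.symm_apply_apply]
    rfl
  | some xy =>
    obtain ⟨x, y⟩ := xy
    rw [eqv_some, szTm_smul_pt, ← eqv_some, Equiv.symm_apply_apply]
    rfl

theorem pi_W : pi (szWm hdata) = pW := by
  apply Equiv.ext
  intro p
  rw [pi_apply]
  cases p with
  | none =>
    rw [eqv_none, szWm_smul_inf, ← eqv_some, Equiv.symm_apply_apply]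
    rfl
  | some xy =>
    obtain ⟨x, y⟩ := xy
    by_cases h0 : x = 0 ∧ y = 0
    · obtain ⟨rfl, rfl⟩ := h0
      rw [eqv_some, szWm_smul_zero, ← eqv_none, Equiv.symm_apply_apply]
      rfl
    · have hf : szf (2 ^ (1 + 1)) x y ≠ 0 := fun h => h0 ((hdata.szf_eq_zero_iff x y).mp h)
      rw [eqv_some, szWm_smul_pt hdata x y hf, ← eqv_some, Equiv.symm_apply_apply]
      show _ = (if x = 0 ∧ y = 0 then none else some (y / szf 4 x y, x / szf 4 x y))
      rw [if_neg h0]
      rfl

theorem eq_one_of_pi {g : ↥(Cfsg.Sz K8 1)} (h : pi g = 1) : g = 1 :=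
  pi_injective (h.trans (map_one pi).symm)

theorem card_sz8 : Nat.card ↥(Cfsg.Sz K8 1) = 29120 := by
  rw [card_sz (m := 1) le_rfl card']
  norm_num

end Cfsg.Agent.Lib.Helper56.SzEight
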