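import Mathlib
import Cfsg.Agent.Lib.Helper37.SzEmb
import Cfsg.Agent.Lib.Helper37.SzLieC
import Cfsg.Agent.Lib.Helper37.SzCount
import Cfsg.Agent.Lib.Helper66.Hopf
import Cfsg.Agent.Lib.Helper35.Schur
import Cfsg.Agent.Lib.Helper56.SzEight.Model

set_option autoImplicit false

/-!
Transport of the Schur multiplier along an isomorphism of groups in different universes, and the
isomorphism between the Suzuki group over the model field and over any field with 8 elements.
-/

namespace Cfsg.Agent.Lib.Helper56.SzEight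

open Cfsg Cfsg.Agent.Lib.Helper37 Cfsg.Agent.Lib.Helper66 Cfsg.Agent.Lib.Helper35

universe u v w

theorem hasSchurMultiplier_transport {Q : Type u} {G : Type v} [Group Q] [Group G] [Finite Q]
    {A : Type w} [CommGroup A] (h : HasSchurMultiplier Q A) (e : Q ≃* G) :
    HasSchurMultiplier G A := by
  haveI : Finite G := Finite.of_equiv Q e.toEquiv
  haveI : Finite A := finite_of_hasSchurMultiplier h
  rw [hasSchurMultiplier_iff G]
  -- a stem extension of `G` with kernel `A`
  obtain ⟨Γ₀, hG, hF, σ₀, hσ₀, ⟨e₀⟩⟩ := h.1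
  let σ : Γ₀ →* G := e.toMonoidHom.comp σ₀
  have hkerσ : σ.ker = σ₀.ker := by
    ext x
    rw [MonoidHom.mem_ker, MonoidHom.mem_ker]
    show e (σ₀ x) = 1 ↔ σ₀ x = 1
    rw [MulEquiv.map_eq_one_iff]
  have hσ : IsStemExtension σ :=
    ⟨e.surjective.comp hσ₀.1, by rw [hkerσ]; exact hσ₀.2.1, by rw [hkerσ]; exact hσ₀.2.2⟩
  obtain ⟨f1, hf1⟩ := hopf_surj_stem G σ hσ
  have c1 : Nat.card A ≤ Nat.card (hopfM G) := by
    have h1 : Nat.card σ.ker ≤ Nat.card (hopfM G) := Nat.card_le_card_of_surjective f1 hf1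
    have h2 : Nat.card σ.ker = Nat.card A := by
      rw [hkerσ]; exact Nat.card_congr e₀.toEquiv
    omega
  -- the cover of `G` as a central extension of `Q`
  obtain ⟨Γ, i1, i2, τ, hτ, ⟨eτ⟩⟩ := exists_cover G
  let τ' : Γ →* Q := e.symm.toMonoidHom.comp τ
  have hkerτ : τ'.ker = τ.ker := by
    ext x
    rw [MonoidHom.mem_ker, MonoidHom.mem_ker]
    show e.symm (τ x) = 1 ↔ τ x = 1
    rw [MulEquiv.map_eq_one_iff]
  obtain ⟨f2, hf2⟩ := exists_surj_of_hasSchurMultiplier Q h τ' (e.symm.surjective.comp hτ.1)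
    (by rw [hkerτ]; exact hτ.2.1)
  have hEq : τ'.ker ⊓ commutator Γ = τ.ker := by
    rw [hkerτ]; exact inf_eq_left.mpr hτ.2.2
  let g : A →* hopfM G :=
    eτ.toMonoidHom.comp ((MulEquiv.subgroupCongr hEq).toMonoidHom.comp f2)
  have hg : Function.Surjective g :=
    eτ.surjective.comp ((MulEquiv.subgroupCongr hEq).surjective.comp hf2)
  exact ⟨MulEquiv.ofBijective g (hg.bijective_of_nat_card_le c1)⟩

theorem sz_iso {F : Type u} [Field F] [Fintype F] (hF : Fintype.card F = 8) :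
    Nonempty (↥(Cfsg.Sz K8 1) ≃* ↥(Cfsg.Lie.Sz F 4)) := by
  have hF' : Fintype.card F = 2 ^ (2 * 1 + 1) := by rw [hF]; norm_num
  have h : SzData F (2 ^ (1 + 1)) := szData_of_card (m := 1) le_rfl hF'
  obtain ⟨ψ⟩ := exists_ringHom_of_dvd (m := 1) (k := 1) hF' card' (dvd_refl _)
  have hψ := th_compat (m := 1) (k := 1) card' (dvd_refl _) ψ
  have hinj := szEmb_injective hdata h ψ hψ
  have hbij : Function.Bijective (szEmb hdata h ψ hψ) :=
    hinj.bijective_of_nat_card_le (by rw [card_sz le_rfl hF', card_sz le_rfl card'])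
  exact ⟨(MulEquiv.ofBijective _ hbij).trans (szLieEquiv h)⟩

end Cfsg.Agent.Lib.Helper56.SzEight
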