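import Mathlib
import Cfsg.Agent.Lib.Helper56.Relax5
import Cfsg.Agent.Lib.Helper56.RSz.Cert
import Cfsg.Agent.Lib.Helper56.SzEight.Transport

set_option autoImplicit false
set_option maxRecDepth 1000000

/-!
The Schur multiplier of the Suzuki group over the field with eight elements, from a coset
enumeration of a perfect relaxed presentation on two generators.
-/

namespace Cfsg.Agent.Lib.Helper56.SzEight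

open Cfsg Cfsg.Agent.Lib.Helper56.TC Cfsg.Agent.Lib.Helper56.TC.Tabs Cfsg.Agent.Lib.Helper35
open Cfsg.Agent.Lib.Helper56.Relax Cfsg.Agent.Lib.Helper37

/-- The generators: the inversion and a translation of order four. -/
noncomputable def fS : Fin 2 → ↥(Cfsg.Sz K8 1) := ![szWm hdata, szTm hdata (k 3) (k 0)]

theorem fS_zero : fS 0 = szWm hdata := rfl

theorem fS_one : fS 1 = szTm hdata (k 3) (k 0) := rfl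

/-- The permutation of the points given by a word. -/
def pw (w : List ℕ) : Equiv.Perm Pt := ew (lt pW (pT (k 3) (k 0))) w

theorem pi_ew (w : List ℕ) : pi (ew (lt (fS 0) (fS 1)) w) = pw w := by
  rw [map_ew_lt, fS_zero, fS_one, pi_W, pi_T]
  rfl

theorem ew_eq_one {w : List ℕ} (h : pw w = 1) : ew (lt (fS 0) (fS 1)) w = 1 :=
  eq_one_of_pi ((pi_ew w).trans h)

theorem ew_ne_one {w : List ℕ} (h : pw w ≠ 1) : ew (lt (fS 0) (fS 1)) w ≠ 1 := by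
  intro h1
  apply h
  rw [← pi_ew, h1, map_one]

/-- Words in two elements lie in the subgroup they generate. -/
theorem ew_mem_closure2 {G : Type*} [Group G] (a b : G) (w : List ℕ) :
    ew (lt a b) w ∈ Subgroup.closure {a, b} := by
  have ha : a ∈ Subgroup.closure {a, b} := Subgroup.subset_closure (Or.inl rfl)
  have hb : b ∈ Subgroup.closure {a, b} := Subgroup.subset_closure (Or.inr rfl)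
  have hl : ∀ l, lt a b l ∈ Subgroup.closure {a, b} := by
    intro l
    match l with
    | 0 => exact ha
    | 1 => exact Subgroup.inv_mem _ ha
    | 2 => exact hb
    | 3 => exact Subgroup.inv_mem _ hb
    | (n + 4) => exact Subgroup.one_mem _
  induction w with
  | nil => exact Subgroup.one_mem _
  | cons x w ih => rw [ew_cons]; exact Subgroup.mul_mem _ (hl x) ih

/-- Words for the translations. -/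
def wTL : List (Fin 8 × Fin 8 × List ℕ) :=
  [(0, 0, []),
   (0, 1, [0, 2, 0, 3, 0, 2, 0, 3, 0, 2, 2, 0, 3, 0, 2, 2, 0, 2, 0, 3, 0]),
   (0, 2, [2, 2]),
   (0, 3, [2, 2, 0, 2, 0, 3, 0, 2, 0, 3, 0, 2, 2, 0, 3, 0, 2, 2, 0, 2, 0, 3, 0]),
   (0, 4, [2, 2, 0, 2, 2, 0, 3, 0, 2, 2, 0, 3, 0, 2, 0, 2, 2, 0, 3, 0, 2, 2, 0, 3, 0, 2, 0]),
   (0, 5, [3, 0, 2, 0, 2, 2, 0, 3, 0, 2, 2, 0, 2, 2, 0, 2, 0, 3, 0, 2, 0, 3, 0, 2, 0, 2, 2, 0, 2, 0]),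
   (0, 6, [0, 2, 2, 0, 3, 0, 2, 2, 0, 3, 0, 2, 0, 2, 2, 0, 3, 0, 2, 2, 0, 3, 0, 2, 0]),
   (0, 7, [0, 2, 0, 3, 0, 3, 0, 2, 0, 3, 0, 2, 0, 2, 2, 0, 3, 0, 2, 0, 2, 2, 0, 3, 0, 2, 2, 0]),
   (1, 0, [0, 2, 0, 3, 0, 3, 0, 2, 0, 2, 2, 0, 3, 0, 2, 0, 3, 0, 3, 0, 2, 0, 3, 0, 2, 2, 0, 2]),
   (1, 1, [3, 0, 2, 0, 3, 0, 3, 0, 2, 0, 3, 0, 2, 0, 3, 0, 3, 0, 2, 0, 2, 2, 0, 3, 0, 2, 2, 0]),
   (1, 2, [0, 3, 0, 2, 0, 3, 0, 2, 0, 3, 0, 2, 0, 2, 2, 0, 2, 0, 3, 0, 3, 0, 2, 0, 2, 2, 0]),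
   (1, 3, [0, 2, 2, 0, 2, 2, 0, 3, 0, 2, 2, 0, 2, 2, 0, 3, 0, 2, 0, 3, 0, 2, 0, 3, 0, 2, 0]),
   (1, 4, [2, 0, 2, 0, 3, 0, 3, 0, 2, 0, 2, 2, 0, 3, 0, 2, 0, 3, 0, 3, 0, 2, 0, 3, 0, 2, 2, 0]),
   (1, 5, [0, 2, 0, 3, 0, 3, 0, 2, 0, 3, 0, 2, 0, 3, 0, 3, 0, 2, 0, 2, 2, 0, 3, 0, 2, 2, 0, 3]),
   (1, 6, [3, 0, 2, 0, 3, 0, 3, 0, 2, 0, 2, 2, 0, 3, 0, 2, 0, 3, 0, 3, 0, 2, 0, 3, 0, 2, 2, 0]),
   (1, 7, [0, 2, 0, 3, 0, 3, 0, 2, 0, 3, 0, 2, 0, 3, 0, 3, 0, 2, 0, 2, 2, 0, 3, 0, 2, 2, 0, 2]),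
   (2, 0, [0, 2, 2, 0, 2, 2, 0, 3, 0, 2, 2, 0, 2, 2, 0, 3, 0, 2, 0, 3, 0, 2, 0, 3, 0, 2, 0, 2]),
   (2, 1, [0, 2, 0, 3, 0, 3, 0, 2, 0, 2, 2, 0, 3, 0, 2, 0, 3, 0, 3, 0, 2, 0, 3, 0, 2, 2, 0]),
   (2, 2, [0, 2, 2, 0, 2, 2, 0, 3, 0, 2, 2, 0, 2, 2, 0, 3, 0, 2, 0, 3, 0, 2, 0, 3, 0, 2, 0, 3]),
   (2, 3, [0, 3, 0, 2, 0, 3, 0, 2, 0, 3, 0, 2, 0, 2, 2, 0, 2, 0, 3, 0, 3, 0, 2, 0, 2, 2, 0, 3]),
   (2, 4, [2, 0, 2, 2, 0, 2, 2, 0, 3, 0, 2, 2, 0, 2, 2, 0, 3, 0, 2, 0, 3, 0, 2, 0, 3, 0, 2, 0]),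
   (2, 5, [2, 0, 3, 0, 2, 0, 3, 0, 2, 0, 3, 0, 2, 0, 2, 2, 0, 2, 0, 3, 0, 3, 0, 2, 0, 2, 2, 0]),
   (2, 6, [0, 2, 0, 3, 0, 3, 0, 2, 0, 3, 0, 2, 0, 3, 0, 3, 0, 2, 0, 2, 2, 0, 3, 0, 2, 2, 0]),
   (2, 7, [3, 0, 3, 0, 2, 0, 3, 0, 2, 0, 3, 0, 2, 0, 2, 2, 0, 2, 0, 3, 0, 3, 0, 2, 0, 2, 2, 0]),
   (3, 0, [2]),
   (3, 1, [2, 0, 2, 0, 3, 0, 2, 0, 3, 0, 2, 2, 0, 3, 0, 2, 2, 0, 2, 0, 3, 0]),
   (3, 2, [3]),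
   (3, 3, [3, 0, 2, 0, 3, 0, 2, 0, 3, 0, 2, 2, 0, 3, 0, 2, 2, 0, 2, 0, 3, 0]),
   (3, 4, [3, 0, 2, 2, 0, 3, 0, 2, 2, 0, 3, 0, 2, 0, 2, 2, 0, 3, 0, 2, 2, 0, 3, 0, 2, 0]),
   (3, 5, [0, 2, 0, 2, 2, 0, 3, 0, 2, 2, 0, 2, 2, 0, 2, 0, 3, 0, 2, 0, 3, 0, 2, 0, 2, 2, 0, 2, 0]),
   (3, 6, [2, 0, 2, 2, 0, 3, 0, 2, 2, 0, 3, 0, 2, 0, 2, 2, 0, 3, 0, 2, 2, 0, 3, 0, 2, 0]),
   (3, 7, [2, 0, 2, 0, 3, 0, 3, 0, 2, 0, 3, 0, 2, 0, 2, 2, 0, 3, 0, 2, 0, 2, 2, 0, 3, 0, 2, 2, 0]),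
   (4, 0, [2, 0, 2, 0, 3, 0, 2, 0, 2, 2, 0, 2, 2, 0, 3, 0, 2, 2, 0, 2, 0, 3, 0, 3, 0]),
   (4, 1, [3, 0, 3, 0, 2, 2, 0, 2, 0, 3, 0, 3, 0, 2, 0, 2, 2, 0, 3, 0, 2, 0, 3, 0, 2]),
   (4, 2, [3, 0, 2, 0, 3, 0, 2, 0, 2, 2, 0, 2, 2, 0, 3, 0, 2, 2, 0, 2, 0, 3, 0, 3, 0]),
   (4, 3, [2, 0, 3, 0, 2, 2, 0, 2, 0, 3, 0, 3, 0, 2, 0, 2, 2, 0, 3, 0, 2, 0, 3, 0, 2]),
   (4, 4, [2, 2, 0, 3, 0, 2, 2, 0, 2, 0, 3, 0, 3, 0, 2, 0, 2, 2, 0, 3, 0, 2, 0, 3, 0]),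
   (4, 5, [0, 2, 0, 3, 0, 2, 0, 2, 2, 0, 2, 2, 0, 3, 0, 2, 2, 0, 2, 2, 0, 2, 0]),
   (4, 6, [0, 3, 0, 2, 2, 0, 2, 0, 3, 0, 3, 0, 2, 0, 2, 2, 0, 3, 0, 2, 0, 3, 0]),
   (4, 7, [2, 2, 0, 2, 0, 3, 0, 2, 0, 2, 2, 0, 2, 2, 0, 3, 0, 2, 2, 0, 2, 2, 0, 2, 0]),
   (5, 0, [2, 0, 2, 2, 0, 3, 0, 2, 0, 2, 2, 0, 3, 0, 2, 0, 2, 2, 0, 3, 0, 2, 2, 0, 3, 0, 2, 0, 2, 0]),
   (5, 1, [3, 0, 2, 2, 0, 3, 0, 2, 0, 2, 2, 0, 3, 0, 2, 2, 0, 2, 2, 0, 2, 0, 3, 0, 2, 0, 3, 0, 2, 0]),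
   (5, 2, [3, 0, 2, 2, 0, 3, 0, 2, 0, 2, 2, 0, 3, 0, 2, 0, 2, 2, 0, 3, 0, 2, 2, 0, 3, 0, 2, 0, 2, 0]),
   (5, 3, [0, 2, 2, 0, 3, 0, 2, 0, 2, 2, 0, 3, 0, 2, 0, 2, 2, 0, 3, 0, 2, 2, 0, 2, 2, 0, 3, 0]),
   (5, 4, [3, 0, 3, 0, 2, 0, 3, 0, 2, 0, 3, 0, 2, 2, 0, 2, 0, 3, 0, 3, 0, 2, 0, 3, 0, 2, 0, 2, 2, 0]),
   (5, 5, [2, 0, 3, 0, 2, 2, 0, 3, 0, 2, 2, 0, 3, 0, 2, 0, 3, 0, 2, 0, 2, 2, 0, 3, 0, 2, 0, 2, 2, 0]),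
   (5, 6, [2, 0, 3, 0, 2, 0, 3, 0, 2, 0, 3, 0, 2, 2, 0, 2, 0, 3, 0, 3, 0, 2, 0, 3, 0, 2, 0, 2, 2, 0]),
   (5, 7, [0, 2, 0, 2, 2, 0, 2, 0, 3, 0, 3, 0, 2, 0, 3, 0, 2, 0, 2, 2, 0, 3, 0, 2, 0, 2, 2, 0]),
   (6, 0, [0, 2, 0, 2, 2, 0, 2, 0, 3, 0, 3, 0, 2, 0, 3, 0, 2, 0, 2, 2, 0, 3, 0, 2, 0, 2, 2, 0, 3]),
   (6, 1, [0, 3, 0, 2, 2, 0, 3, 0, 2, 2, 0, 3, 0, 2, 0, 3, 0, 2, 0, 2, 2, 0, 3, 0, 2, 0, 2, 2, 0]),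
   (6, 2, [0, 3, 0, 2, 0, 3, 0, 2, 0, 3, 0, 2, 2, 0, 2, 0, 3, 0, 3, 0, 2, 0, 3, 0, 2, 0, 2, 2, 0]),
   (6, 3, [3, 0, 2, 0, 2, 2, 0, 2, 0, 3, 0, 3, 0, 2, 0, 3, 0, 2, 0, 2, 2, 0, 3, 0, 2, 0, 2, 2, 0]),
   (6, 4, [0, 2, 2, 0, 3, 0, 2, 0, 2, 2, 0, 3, 0, 2, 0, 2, 2, 0, 3, 0, 2, 2, 0, 3, 0, 2, 0, 2, 0]),
   (6, 5, [2, 0, 2, 2, 0, 3, 0, 2, 0, 2, 2, 0, 3, 0, 2, 0, 2, 2, 0, 3, 0, 2, 2, 0, 2, 2, 0, 3, 0]),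
   (6, 6, [0, 2, 2, 0, 3, 0, 2, 0, 2, 2, 0, 3, 0, 2, 0, 2, 2, 0, 3, 0, 2, 2, 0, 2, 2, 0, 3, 0, 2]),
   (6, 7, [0, 2, 2, 0, 3, 0, 2, 0, 2, 2, 0, 3, 0, 2, 2, 0, 2, 2, 0, 2, 0, 3, 0, 2, 0, 3, 0, 2, 0]),
   (7, 0, [0, 3, 0, 2, 2, 0, 2, 0, 3, 0, 3, 0, 2, 0, 2, 2, 0, 3, 0, 2, 0, 3, 0, 2]),
   (7, 1, [0, 2, 0, 3, 0, 2, 0, 2, 2, 0, 2, 2, 0, 3, 0, 2, 2, 0, 2, 2, 0, 2, 0, 3]),
   (7, 2, [0, 3, 0, 2, 2, 0, 2, 0, 3, 0, 3, 0, 2, 0, 2, 2, 0, 3, 0, 2, 0, 3, 0, 3]),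
   (7, 3, [0, 2, 0, 3, 0, 2, 0, 2, 2, 0, 2, 2, 0, 3, 0, 2, 2, 0, 2, 0, 3, 0, 3, 0]),
   (7, 4, [2, 0, 2, 0, 3, 0, 2, 0, 2, 2, 0, 2, 2, 0, 3, 0, 2, 2, 0, 2, 2, 0, 2, 0]),
   (7, 5, [3, 0, 3, 0, 2, 2, 0, 2, 0, 3, 0, 3, 0, 2, 0, 2, 2, 0, 3, 0, 2, 0, 3, 0]),
   (7, 6, [3, 0, 2, 0, 3, 0, 2, 0, 2, 2, 0, 2, 2, 0, 3, 0, 2, 2, 0, 2, 2, 0, 2, 0]),
   (7, 7, [2, 0, 3, 0, 2, 2, 0, 2, 0, 3, 0, 3, 0, 2, 0, 2, 2, 0, 3, 0, 2, 0, 3, 0])]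

theorem wTL_complete : ∀ a b : Fin 8, ∃ t ∈ wTL, t.1 = a ∧ t.2.1 = b := by decide +kernel

theorem wTL_spec : ∀ t ∈ wTL, pw t.2.2 = pT (k t.1) (k t.2.1) := by decide +kernel

theorem T_mem (a b : K8) : szTm hdata a b ∈ Subgroup.closure {fS 0, fS 1} := by
  obtain ⟨t, ht, rfl, rfl⟩ := wTL_complete a b
  have h1 := wTL_spec t ht
  have h2 : ew (lt (fS 0) (fS 1)) t.2.2 = szTm hdata (k t.1) (k t.2.1) := by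
    apply pi_injective
    rw [pi_ew, pi_T]
    exact h1
  have h3 := ew_mem_closure2 (fS 0) (fS 1) t.2.2
  rw [h2] at h3
  exact h3

theorem closure_fS : Subgroup.closure {fS 0, fS 1} = ⊤ := by
  apply sz_eq_top_of_T_Tw hdata
  · exact T_mem
  · intro a b
    have hW : szWm hdata ∈ Subgroup.closure {fS 0, fS 1} :=
      Subgroup.subset_closure (Or.inl rfl)
    exact Subgroup.mul_mem _ (Subgroup.mul_mem _ hW (T_mem a b)) hW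

theorem genS : Function.Surjective (piF fS) := by
  rw [← MonoidHom.range_eq_top]
  unfold piF
  rw [FreeGroup.range_lift_eq_closure, ← closure_fS]
  congr 1
  ext x
  constructor
  · rintro ⟨i, rfl⟩
    fin_cases i
    · exact Or.inl rfl
    · exact Or.inr rfl
  · rintro (rfl | rfl)
    · exact ⟨0, rfl⟩
    · exact ⟨1, rfl⟩

/-- The word of order thirteen. -/
def yS : List ℕ := [0, 2, 0, 2, 0, 3]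

/-- The central words. -/
def cwS : List (List ℕ) :=
  [[0, 0],
   [2, 2, 2, 2],
   [0, 2, 0, 2, 0, 2, 0, 2, 0, 2],
   [0, 2, 2, 0, 3, 0, 2, 2, 0, 3, 0, 2, 2, 0, 3, 0, 2, 2, 0, 3, 0, 2, 2, 0, 3, 0, 2, 2, 0, 3, 0, 2, 2, 0, 3],
   [0, 2, 0, 2, 0, 3, 0, 2, 0, 2, 0, 3, 0, 2, 0, 2, 0, 3, 0, 2, 0, 2, 0, 3, 0, 2, 0, 2, 0, 3, 0, 2, 0, 2, 0, 3, 0, 2, 0, 2, 0, 3, 0, 2, 0, 2, 0, 3, 0, 2, 0, 2, 0, 3, 0, 2, 0, 2, 0, 3, 0, 2, 0, 2, 0, 3, 0, 2, 0, 2, 0, 3, 0, 2, 0, 2, 0, 3],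
   [0, 2, 0, 2, 2, 0, 3, 0, 2, 0, 2, 2, 0, 3, 0, 2, 0, 2, 2, 0, 3, 0, 2, 0, 2, 2, 0, 3, 0, 2, 0, 2, 2, 0, 3, 0, 2, 0, 2, 2, 0, 3, 0, 2, 0, 2, 2, 0, 3]]

/-- The first extra relator, of degree `(1, 1)`. -/
def v0S : List ℕ := [0, 2, 0, 2, 0, 2, 0, 2, 0, 2, 3, 3, 3, 3, 1, 1, 1, 1]

/-- The second extra relator, of degree `(0, 1)`. -/
def v1S : List ℕ := [0, 0, 0, 0, 0, 0, 0, 0, 0, 0, 0, 0, 0, 0, 2, 2, 2, 2, 2, 2, 2, 2, 2, 1, 3, 3, 1, 2, 1, 3, 3, 1, 2, 1, 3, 3, 1, 2, 1, 3, 3, 1, 2, 1, 3, 3, 1, 2, 1, 3, 3, 1, 2, 1, 3, 3, 1]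

/-- The word commuting with the involution. -/
def sS : List ℕ := [2, 0, 3, 0, 2, 0, 2, 2, 0, 3, 0, 2, 0, 3, 0, 2, 2, 0, 2]

/-- The second generator of the multiplier. -/
def w2S : List ℕ := [0, 2, 0, 2, 2, 0, 3, 0, 2, 0, 2, 2, 0, 3, 0, 2, 0, 2, 2, 0, 3, 0, 2, 0, 2, 2, 0, 3, 0, 2, 0, 2, 2, 0, 3, 0, 2, 0, 2, 2, 0, 3, 0, 2, 0, 2, 2, 0, 3]

theorem pw_cwS : ∀ c ∈ cwS, pw c = 1 := by decide +kernel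

theorem pw_v0S : pw v0S = 1 := by decide +kernel

theorem pw_v1S : pw v1S = 1 := by decide +kernel

theorem pw_sS : pw (cmw sS 0) = 1 := by decide +kernel

theorem pw_yS : pw yS ≠ 1 := by decide +kernel

theorem pw_o5 : pw [0, 2] ≠ 1 := by decide +kernel

theorem pw_o7 : pw [0, 2, 2, 0, 3] ≠ 1 := by decide +kernel

theorem pw_o4 : pw [2, 2] ≠ 1 := by decide +kernel

theorem hcwS : ∀ c ∈ cwS, ew (lt (fS 0) (fS 1)) c = 1 := fun c hc => ew_eq_one (pw_cwS c hc)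

theorem index_of_order (g : ↥(Cfsg.Sz K8 1)) (n m : ℕ) (ho : orderOf g = n) (hn : n * m = 29120)
    (hn0 : 0 < n) : (Subgroup.zpowers g).index = m := by
  have h := Subgroup.card_mul_index (Subgroup.zpowers g)
  rw [Nat.card_zpowers, ho, card_sz8, ← hn] at h
  exact Nat.eq_of_mul_eq_mul_left hn0 h

theorem order_prime (w : List ℕ) (p : ℕ) [hp : Fact p.Prime] (h1 : pw w ≠ 1)
    (hc : powW p w ∈ cwS) : orderOf (ew (lt (fS 0) (fS 1)) w) = p := by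
  apply orderOf_eq_prime
  · rw [← ew_powW]
    exact hcwS _ hc
  · exact ew_ne_one h1

theorem order_four : orderOf (fS 1) = 4 := by
  have h1 : ew (lt (fS 0) (fS 1)) [2, 2] = fS 1 ^ 2 ^ 1 :=
    ew_replicate (lt (fS 0) (fS 1)) 2 2
  have h2 : ew (lt (fS 0) (fS 1)) [2, 2, 2, 2] = fS 1 ^ 2 ^ (1 + 1) :=
    ew_replicate (lt (fS 0) (fS 1)) 4 2
  have h3 : orderOf (fS 1) = 2 ^ (1 + 1) := by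
    apply orderOf_eq_prime_pow
    · rw [← h1]
      exact ew_ne_one pw_o4
    · rw [← h2]
      exact hcwS _ (by decide)
  rw [h3]
  norm_num

theorem hexpS : ∀ z ∈ M fS, z ^ 16 = 1 := by
  intro z hz
  have : Fact (Nat.Prime 13) := ⟨by norm_num⟩
  have : Fact (Nat.Prime 5) := ⟨by norm_num⟩
  have : Fact (Nat.Prime 7) := ⟨by norm_num⟩
  have o13 := order_prime yS 13 pw_yS (by decide)
  have o5 := order_prime [0, 2] 5 pw_o5 (by decide)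
  have o7 := order_prime [0, 2, 2, 0, 3] 7 pw_o7 (by decide)
  have i13 := index_of_order _ 13 2240 o13 (by norm_num) (by norm_num)
  have i5 := index_of_order _ 5 5824 o5 (by norm_num) (by norm_num)
  have i7 := index_of_order _ 7 4160 o7 (by norm_num) (by norm_num)
  have i4 := index_of_order _ 4 7280 order_four (by norm_num) (by norm_num)
  have z13 := M_pow_index fS genS (ew (lt (fS 0) (fS 1)) yS) z hz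
  have z5 := M_pow_index fS genS (ew (lt (fS 0) (fS 1)) [0, 2]) z hz
  have z7 := M_pow_index fS genS (ew (lt (fS 0) (fS 1)) [0, 2, 2, 0, 3]) z hz
  have z4 := M_pow_index fS genS (fS 1) z hz
  rw [i13] at z13
  rw [i5] at z5
  rw [i7] at z7
  rw [i4] at z4
  have d13 := orderOf_dvd_of_pow_eq_one z13
  have d5 := orderOf_dvd_of_pow_eq_one z5
  have d7 := orderOf_dvd_of_pow_eq_one z7
  have d4 := orderOf_dvd_of_pow_eq_one z4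
  have hd : orderOf z ∣ 16 := by
    have h := Nat.dvd_gcd (Nat.dvd_gcd d13 d5) (Nat.dvd_gcd d7 d4)
    have e : Nat.gcd (Nat.gcd 2240 5824) (Nat.gcd 4160 7280) = 16 := by norm_num
    rw [e] at h
    exact h
  exact orderOf_dvd_iff_pow_eq_one.mp hd

theorem hypS : Hyp5 fS RSz.T cwS v0S v1S [[0, 0], [2, 2, 2, 2]] [sS] 16 13 yS sS w2S where
  cert := RSz.cert
  hK := rfl
  hinv := by
    intro l hl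
    interval_cases l <;> rfl
  hrels := by decide +kernel
  hsubs := by decide +kernel
  hN := by rw [card_sz8]; rfl
  hp := by norm_num
  hp2 := by norm_num
  hE := ⟨4, by norm_num⟩
  hf := genS
  hq0 := szWm_mul_self hdata
  hcw := hcwS
  hv0 := ew_eq_one pw_v0S
  hv1 := ew_eq_one pw_v1S
  hpw := by decide
  hs := by decide
  hkw := by
    intro s hs
    rw [List.mem_singleton] at hs
    subst hs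
    exact ew_eq_one pw_sS
  hd0 := by decide +kernel
  hd1 := by decide +kernel
  hexp := hexpS
  hy := by decide +kernel
  hy1 := ew_ne_one pw_yS
  hw2 := by decide +kernel
  htE := by decide +kernel
  htk := by decide +kernel
  ht1 := by decide +kernel
  ht2 := by decide +kernel
  ht12 := by decide +kernel
  htp := by decide +kernel
  hts2 := by decide +kernel

theorem mult_K8 : HasSchurMultiplier ↥(Cfsg.Sz K8 1) (Multiplicative (ZMod 2 × ZMod 2)) :=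
  Relax.main5 hypS

end Cfsg.Agent.Lib.Helper56.SzEight
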